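import Cfsg.Agent.H94.S460.J.J2.RChk0

set_option autoImplicit false
set_option linter.all false

namespace Cfsg.Agent.H94.S460.J

open Cfsg.Agent.H35 Cfsg.Spor

theorem j2_rall : ∀ p, p < 52 → j2_rf p = true := by
  apply allR_blocks j2_rf 52 10 1 _ (by decide)
  intro k hk
  interval_cases k
  · exact j2_rchk_0

theorem j2_circ_ok : circChk (fullW j2_rws j2_prels) j2_circT 0 j2_ccert = true := by decide +kernel
theorem j2_hc_ok : allR (fun c => hcChk j2_rsw j2_hc1T j2_hc2T c) 3 2 0 = true := by decide +kernel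
theorem j2_h0 : RData.aord (j2_rd.ent 0 1) = 0 := by decide +kernel

end Cfsg.Agent.H94.S460.J
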